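import Cfsg.Agent.H915.Gs.WMain

/-!
# `SL(2,q)`, `q` even, is generated by four conjugates of a transvection (helper915)
-/

set_option autoImplicit false

namespace Cfsg.Agent.H915.TGEven

open Matrix Cfsg.Agent.LieClassical.SLTwoUnipotent Cfsg.Agent.H915.Gs

variable {F : Type*} [Field F]

theorem conj_u (t : F) {r : F} (hr : r ≠ 0) : ∃ g : SpecialLinearGroup (Fin 2) F, g * u t * g⁻¹ = u (r ^ 2 * t) := by
  obtain ⟨g, hg⟩ : ∃ g : SpecialLinearGroup (Fin 2) F, (g : Matrix (Fin 2) (Fin 2) F) = !![r, 0; 0, r⁻¹] :=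
    ⟨⟨!![r, 0; 0, r⁻¹], by simp [Matrix.det_fin_two, hr]⟩, rfl⟩
  refine ⟨g, ?_⟩
  rw [mul_inv_eq_iff_eq_mul]
  apply ext_coe
  rw [coe_mul, coe_mul, coe_u, coe_u, hg]
  ext i j
  fin_cases i <;> fin_cases j <;> simp [Matrix.mul_apply, Fin.sum_univ_two]
  field_simp

theorem conj_l (x : F) : ∃ g : SpecialLinearGroup (Fin 2) F, g * u x * g⁻¹ = l (-x) := by
  obtain ⟨g, hg⟩ : ∃ g : SpecialLinearGroup (Fin 2) F, (g : Matrix (Fin 2) (Fin 2) F) = !![0, 1; -1, 0] :=
    ⟨⟨!![0, 1; -1, 0], by simp [Matrix.det_fin_two]⟩, rfl⟩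
  refine ⟨g, ?_⟩
  rw [mul_inv_eq_iff_eq_mul]
  apply ext_coe
  rw [coe_mul, coe_mul, coe_u, coe_l, hg]
  ext i j
  fin_cases i <;> fin_cases j <;> simp [Matrix.mul_apply, Fin.sum_univ_two]

section

variable [Finite F] (h2 : (2 : F) = 0) {t : F} (ht : t ≠ 0)

include h2 ht

theorem exists_sq (x : F) : ∃ r : F, r ^ 2 * t = x := by
  have := Fintype.ofFinite F
  have hc : ringChar F = 2 := CharP.ringChar_of_prime_eq_zero Nat.prime_two (by exact_mod_cast h2)
  obtain ⟨r, hr⟩ := FiniteField.isSquare_of_char_two hc (x / t)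
  refine ⟨r, ?_⟩
  rw [pow_two, ← hr, div_mul_cancel₀ _ ht]

theorem exists_u (x : F) : ∃ g : SpecialLinearGroup (Fin 2) F, ∀ H : Subgroup (SpecialLinearGroup (Fin 2) F),
    g * u t * g⁻¹ ∈ H → u x ∈ H := by
  by_cases hx : x = 0
  · refine ⟨1, fun H _ => ?_⟩
    rw [hx, u_zero]
    exact one_mem _
  · obtain ⟨r, hr⟩ := exists_sq h2 ht x
    have hr0 : r ≠ 0 := by
      rintro rfl
      apply hx
      rw [← hr]
      ring
    obtain ⟨g, hg⟩ := conj_u t hr0
    refine ⟨g, fun H h => ?_⟩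
    rwa [hg, hr] at h

theorem exists_l (x : F) : ∃ g : SpecialLinearGroup (Fin 2) F, ∀ H : Subgroup (SpecialLinearGroup (Fin 2) F),
    g * u t * g⁻¹ ∈ H → l x ∈ H := by
  obtain ⟨g, hg⟩ := conj_l (-x)
  rw [neg_neg] at hg
  obtain ⟨g', hg'⟩ := exists_u h2 ht (-x)
  refine ⟨g * g', fun H h => ?_⟩
  have h1 := hg' (H.comap (MulAut.conj g).toMonoidHom) (by
    rw [Subgroup.mem_comap]
    change g * (g' * u t * g'⁻¹) * g⁻¹ ∈ H
    have e : g * (g' * u t * g'⁻¹) * g⁻¹ = g * g' * u t * (g * g')⁻¹ := by group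
    rwa [e])
  rw [Subgroup.mem_comap] at h1
  change g * u (-x) * g⁻¹ ∈ H at h1
  rwa [hg] at h1

/-- **four conjugates of a transvection**, two if `q = 2` -/
theorem even : ∃ (N : ℕ) (g : Fin N → SpecialLinearGroup (Fin 2) F),
    Subgroup.closure (Set.range fun i => g i * u t * (g i)⁻¹) = ⊤ ∧ N ≤ 4 ∧ (Nat.card F = 2 → N ≤ 2) := by
  have := Fintype.ofFinite F
  have hc : ringChar F = 2 := CharP.ringChar_of_prime_eq_zero Nat.prime_two (by exact_mod_cast h2)
  by_cases hF : Nat.card F = 2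
  · obtain ⟨g1, h1⟩ := exists_u h2 ht 1
    obtain ⟨g2, h2'⟩ := exists_l h2 ht 1
    refine ⟨2, ![g1, g2], ?_, by norm_num, fun _ => le_rfl⟩
    have key : ∀ x : F, x = 0 ∨ x = 1 := by
      intro x
      have h3 := FiniteField.pow_card x
      rw [← Nat.card_eq_fintype_card, hF] at h3
      have h4 : x * (x - 1) = 0 := by linear_combination h3
      rcases mul_eq_zero.1 h4 with h5 | h5
      · exact Or.inl h5
      · exact Or.inr (sub_eq_zero.1 h5)
    apply eq_top_of_u_mem_of_l_mem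
    · intro x
      rcases key x with rfl | rfl
      · rw [u_zero]; exact one_mem _
      · exact h1 _ (Subgroup.subset_closure ⟨0, rfl⟩)
    · intro x
      rcases key x with rfl | rfl
      · rw [l_zero]; exact one_mem _
      · exact h2' _ (Subgroup.subset_closure ⟨1, rfl⟩)
  · have hev := FiniteField.even_card_of_char_two hc
    have h1 := Fintype.one_lt_card (α := F)
    rw [Nat.card_eq_fintype_card] at hF
    obtain ⟨x, y, h⟩ := w_gen (F := F) (by omega) one_ne_zero 1 (n := 1) odd_one (by simp)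
      (Or.inl (Nat.even_iff.2 hev))
    obtain ⟨g1, h1⟩ := exists_u h2 ht x
    obtain ⟨g2, h2'⟩ := exists_l h2 ht (1 * (1 : F ≃+* F) x)
    obtain ⟨g3, h3⟩ := exists_u h2 ht y
    obtain ⟨g4, h4⟩ := exists_l h2 ht (1 * (1 : F ≃+* F) y)
    refine ⟨4, ![g1, g2, g3, g4], ?_, le_rfl, fun h => absurd (by rwa [Nat.card_eq_fintype_card] at h) hF⟩
    rw [eq_top_iff, ← h, Subgroup.closure_le]
    rintro z (rfl | rfl)
    · exact mul_mem (h1 _ (Subgroup.subset_closure ⟨0, rfl⟩)) (h2' _ (Subgroup.subset_closure ⟨1, rfl⟩))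
    · exact mul_mem (h3 _ (Subgroup.subset_closure ⟨2, rfl⟩)) (h4 _ (Subgroup.subset_closure ⟨3, rfl⟩))

end

end Cfsg.Agent.H915.TGEven
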